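import Mathlib
import Cfsg.Agent.Lib.PqFpf.Struct
import Cfsg.Agent.Lib.Char.GlaubClif

/-!
# Orbits of a coprime group, and Glauberman's lemma
-/

set_option autoImplicit false
set_option linter.style.haveILetI false

namespace Cfsg.Agent.Lib.PqFpf

open Module

variable {Γ A Y : Type*} [Group Γ] [Group A] [MulAction Γ Y]

/-- The subgroup of `A` stabilising the `T`-orbit of `y`. -/
def orbStab (α : A →* Γ) {T : Subgroup Γ} (hT : Norm α T) (y : Y) : Subgroup A where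
  carrier := {a | ∃ τ ∈ T, α a • y = τ • y}
  one_mem' := ⟨1, T.one_mem, by simp⟩
  mul_mem' := by
    rintro a b ⟨τa, hτa, h1⟩ ⟨τb, hτb, h2⟩
    refine ⟨(α a * τb * (α a)⁻¹) * τa, T.mul_mem (hT a τb hτb) hτa, ?_⟩
    rw [map_mul, mul_smul, h2, mul_smul, ← h1, ← mul_smul, ← mul_smul]
    congr 1
    group
  inv_mem' := by
    rintro a ⟨τ, hτ, h1⟩
    refine ⟨(α a)⁻¹ * τ⁻¹ * α a, ?_, ?_⟩
    · simpa [mul_assoc] using hT a⁻¹ τ⁻¹ (T.inv_mem hτ)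
    · rw [map_inv]
      have h2 : τ⁻¹ • α a • y = y := by rw [h1, inv_smul_smul]
      have h3 : ((α a)⁻¹ * τ⁻¹ * α a) • y = (α a)⁻¹ • (τ⁻¹ • α a • y) := by
        rw [mul_smul, mul_smul]
      rw [h3, h2]

theorem mem_orbStab {α : A →* Γ} {T : Subgroup Γ} {hT : Norm α T} {y : Y} {a : A} :
    a ∈ orbStab α hT y ↔ ∃ τ ∈ T, α a • y = τ • y := Iff.rfl

theorem mem_orbStab_of_fixed {α : A →* Γ} {T : Subgroup Γ} {hT : Norm α T} {y : Y} {a : A}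
    {τ : Γ} (hτ : τ ∈ T) (h : α a • (τ • y) = τ • y) : a ∈ orbStab α hT y := by
  refine ⟨(α a * τ * (α a)⁻¹)⁻¹ * τ, T.mul_mem (T.inv_mem (hT a τ hτ)) hτ, ?_⟩
  rw [mul_smul, ← h, ← mul_smul, ← mul_smul]
  congr 1
  group

variable [Finite Γ] [Finite A]

/-- Glauberman's lemma for an orbit of a subgroup of coprime order. -/
theorem exists_fixed_of_orbit {α : A →* Γ} {T : Subgroup Γ} (hT : Norm α T)
    (hcop : (Nat.card A).Coprime (Nat.card T)) (hsolv : Group.IsSolvable T) (y : Y)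
    (hy : ∀ a, ∃ τ ∈ T, α a • y = τ • y) : ∃ τ ∈ T, ∀ a, α a • (τ • y) = τ • y := by
  classical
  let L : Subgroup Γ := T ⊔ α.range
  have hTL : T ≤ L := le_sup_left
  have hAL : α.range ≤ L := le_sup_right
  have hstep : ∀ a, ∀ τ ∈ T, ∃ τ' ∈ T, α a • (τ • y) = τ' • y := by
    intro a τ hτ
    obtain ⟨τ₁, hτ₁, h1⟩ := hy a
    refine ⟨(α a * τ * (α a)⁻¹) * τ₁, T.mul_mem (hT a τ hτ) hτ₁, ?_⟩
    rw [mul_smul, ← h1, ← mul_smul, ← mul_smul]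
    congr 1
    group
  let Sg : Subgroup Γ :=
    { carrier := {g | (∀ τ ∈ T, ∃ τ' ∈ T, g • (τ • y) = τ' • y) ∧
        (∀ τ ∈ T, ∃ τ' ∈ T, g⁻¹ • (τ • y) = τ' • y)}
      one_mem' := by
        refine ⟨fun τ hτ => ⟨τ, hτ, by simp⟩, fun τ hτ => ⟨τ, hτ, by simp⟩⟩
      mul_mem' := by
        rintro a b ⟨ha, ha'⟩ ⟨hb, hb'⟩
        refine ⟨fun τ hτ => ?_, fun τ hτ => ?_⟩
        · obtain ⟨τ₁, hτ₁, h1⟩ := hb τ hτ
          obtain ⟨τ₂, hτ₂, h2⟩ := ha τ₁ hτ₁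
          exact ⟨τ₂, hτ₂, by rw [mul_smul, h1, h2]⟩
        · obtain ⟨τ₁, hτ₁, h1⟩ := ha' τ hτ
          obtain ⟨τ₂, hτ₂, h2⟩ := hb' τ₁ hτ₁
          exact ⟨τ₂, hτ₂, by rw [mul_inv_rev, mul_smul, h1, h2]⟩
      inv_mem' := by
        rintro a ⟨ha, ha'⟩
        refine ⟨ha', fun τ hτ => ?_⟩
        rw [inv_inv]
        exact ha τ hτ }
  have hLS : L ≤ Sg := by
    refine sup_le (fun τ hτ => ?_) ?_
    · refine ⟨fun τ₁ hτ₁ => ⟨τ * τ₁, T.mul_mem hτ hτ₁, by rw [mul_smul]⟩,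
        fun τ₁ hτ₁ => ⟨τ⁻¹ * τ₁, T.mul_mem (T.inv_mem hτ) hτ₁, by rw [mul_smul]⟩⟩
    · rintro _ ⟨a, rfl⟩
      refine ⟨hstep a, fun τ hτ => ?_⟩
      rw [← map_inv]
      exact hstep a⁻¹ τ hτ
  let X : SubMulAction L Y :=
    { carrier := {w | ∃ τ ∈ T, τ • y = w}
      smul_mem' := by
        rintro g _ ⟨τ, hτ, rfl⟩
        exact (hLS g.2).1 τ hτ |>.imp fun τ' h => ⟨h.1, h.2.symm⟩ }
  haveI : Nonempty X := ⟨⟨y, 1, T.one_mem, by simp⟩⟩
  haveI hGn : (T.subgroupOf L).Normal := (Subgroup.normal_subgroupOf_iff_le_normalizer hTL).mpr (by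
    refine sup_le ?_ (range_le_normalizer hT)
    exact Subgroup.le_normalizer)
  have hcardT : Nat.card (T.subgroupOf L) = Nat.card T :=
    Nat.card_congr (Subgroup.subgroupOfEquivOfLe hTL).toEquiv
  have hcardA : Nat.card (α.range.subgroupOf L) = Nat.card α.range :=
    Nat.card_congr (Subgroup.subgroupOfEquivOfLe hAL).toEquiv
  haveI := hsolv
  haveI hsolvT : Group.IsSolvable (T.subgroupOf L) :=
    Group.isSolvable_of_surjective (f := (Subgroup.subgroupOfEquivOfLe hTL).symm.toMonoidHom)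
      (Subgroup.subgroupOfEquivOfLe hTL).symm.surjective
  obtain ⟨x, hx⟩ := Cfsg.Agent.Lib.Char.GlaubClif.exists_fixed_quot (L := L) (X := X) (T.subgroupOf L)
    (α.range.subgroupOf L) ⊥ bot_le (by
      rw [← Subgroup.subgroupOf_sup hTL hAL]
      exact Subgroup.subgroupOf_self L) (by
      intro n hn x
      rw [Subgroup.mem_bot] at hn
      rw [hn, one_smul]) (by
      rw [Subgroup.relIndex_bot_left, hcardT, hcardA]
      exact (coprime_range hcop).symm) (Or.inr inferInstance) (by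
      rintro ⟨_, τ, hτ, rfl⟩ ⟨_, τ', hτ', rfl⟩
      refine ⟨⟨τ' * τ⁻¹, hTL (T.mul_mem hτ' (T.inv_mem hτ))⟩, ?_, ?_⟩
      · exact Subgroup.mem_subgroupOf.mpr (T.mul_mem hτ' (T.inv_mem hτ))
      · apply Subtype.ext
        show (τ' * τ⁻¹) • τ • y = τ' • y
        rw [mul_smul, inv_smul_smul])
  obtain ⟨_, τ, hτ, rfl⟩ := x
  refine ⟨τ, hτ, fun a => ?_⟩
  have h1 := hx ⟨α a, hAL ⟨a, rfl⟩⟩ (Subgroup.mem_subgroupOf.mpr ⟨a, rfl⟩)
  exact congrArg Subtype.val h1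

end Cfsg.Agent.Lib.PqFpf
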