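import Mathlib
import Cfsg.Agent.Lib.PqFpf.Orbit

/-!
# The case of an abelian `N`
-/

set_option autoImplicit false
set_option linter.style.haveILetI false

namespace Cfsg.Agent.Lib.PqFpf

open Module

section Twist

variable {K Q A : Type*} [Field K] [Group Q] [Group A]

/-- The action on characters. -/
@[instance_reducible] def twistAction (θ : A →* MulAut Q) : MulAction A (Q →* Kˣ) where
  smul a μ := twist θ a μ
  one_smul μ := by
    ext y
    show ((twist θ 1 μ y : Kˣ) : K) = _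
    rw [twist_apply]
    simp
  mul_smul a b μ := by
    ext y
    show ((twist θ (a * b) μ y : Kˣ) : K) = ((twist θ a (twist θ b μ) y : Kˣ) : K)
    rw [twist_apply, twist_apply, twist_apply]
    simp [MulAut.mul_apply]

end Twist

section

variable {Γ A K V : Type*} [Group Γ] [Group A] [Finite Γ] [Finite A] [Field K] [AddCommGroup V]
  [Module K V]

theorem stab_ne_top_gen {α : A →* Γ} {Z : Subgroup Γ} (hZ : Norm α Z)
    (hcop : (Nat.card A).Coprime (Nat.card Z)) (hsolv : Group.IsSolvable Z) (hfpf : Fpf α Z)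
    {μ : Z →* Kˣ} (hμ : μ ≠ 1) : stabOf (conjOn α Z hZ) μ ≠ ⊤ := by
  intro htop
  apply hμ
  set S : Subgroup Γ := μ.ker.map Z.subtype with hS
  have hSZ : S ≤ Z := Subgroup.map_subtype_le _
  have hmem : ∀ y : Z, (y : Γ) ∈ S ↔ μ y = 1 := by
    intro y
    constructor
    · rintro ⟨y', hy', hyy⟩
      have h1 : y' = y := Subtype.ext hyy
      subst h1
      exact hy'
    · intro h1
      exact ⟨y, h1, rfl⟩
  have hst : ∀ (a : A) (y : Z), μ (conjOn α Z hZ a y) = μ y := by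
    intro a y
    have ha : a ∈ stabOf (conjOn α Z hZ) μ := by rw [htop]; trivial
    exact ha y
  have hSnorm : Norm α S := by
    rintro a _ ⟨y, hy, rfl⟩
    have h1 : μ y = 1 := hy
    show α a * (y : Γ) * (α a)⁻¹ ∈ S
    rw [← conjOn_coe α Z hZ, hmem, hst, h1]
  ext y
  have hy : (y : Γ) ∈ S := by
    refine mem_of_coset_fixed hZ hcop hsolv hfpf hSZ hSnorm y.2 ?_
    intro a
    rw [← conjOn_coe α Z hZ a y, ← Subgroup.coe_inv, ← Subgroup.coe_mul, hmem, map_mul, map_inv, hst,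
      inv_mul_cancel]
  have h1 := (hmem y).mp hy
  rw [h1]
  rfl

variable {α : A →* Γ} {N T : Subgroup Γ} [hN : N.Normal] {p q t s : ℕ}

namespace MinSetup

theorem card_N_ne (h : MinSetup α N T p q t s) (htK : (t : K) ≠ 0) : (Nat.card N : K) ≠ 0 := by
  haveI : Fact t.Prime := ⟨h.ht⟩
  obtain ⟨k, hk⟩ := IsPGroup.iff_card.mp h.Npg
  rw [hk, Nat.cast_pow]
  exact pow_ne_zero _ htK

/-- The case of an abelian `N`. -/
theorem abelian_case (h : MinSetup α N T p q t s) [IsAlgClosed K] [FiniteDimensional K V]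
    (ρ : Γ →* End K V) (hρ : Function.Injective ρ) (htK : (t : K) ≠ 0)
    (hAK : (Nat.card A : K) ≠ 0) (hfix : ∀ v, (∀ a, ρ (α a) v = v) → v = 0)
    (hab : ∀ a ∈ N, ∀ b ∈ N, a * b = b * a) : ∀ z ∈ Zone N T, ∀ n ∈ N, z * n = n * z := by
  classical
  haveI : Fact t.Prime := ⟨h.ht⟩
  haveI : Fact s.Prime := ⟨h.hs⟩
  have D := h.dualSetup
  letI act := twistAction (K := K) (MulAut.conjNormal : Γ →* MulAut N)
  have hsmul : ∀ (g : Γ) (χ : N →* Kˣ), g • χ = twist MulAut.conjNormal g χ := fun _ _ => rfl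
  let τN : N →* End K V := ρ.comp N.subtype
  let θ := conjOn α N h.normN
  let σ : A →* End K V := ρ.comp α
  have hc : ∀ a y, σ a * τN y = τN (θ a y) * σ a := by
    intro a y
    show ρ (α a) * ρ y = ρ (α a * y * (α a)⁻¹) * ρ (α a)
    rw [← map_mul, ← map_mul]
    congr 1
    group
  have hcΓ : ∀ (g : Γ) y, ρ g * τN y = τN (MulAut.conjNormal g y) * ρ g := by
    intro a y
    show ρ a * ρ y = ρ (a * y * a⁻¹) * ρ a
    rw [← map_mul, ← map_mul]
    congr 1
    group
  have hθ : ∀ (a : A) (y : N), θ a y = MulAut.conjNormal (α a) y := fun _ _ => rfl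
  have htw : ∀ (a : A) (χ : N →* Kˣ), twist θ a χ = α a • χ := by
    intro a χ
    ext y
    rw [hsmul, twist_apply, twist_apply, hθ, map_inv]
  have hNK : (Nat.card N : K) ≠ 0 := h.card_N_ne htK
  have hW₀ : ∀ a, ∀ v ∈ (⊤ : Submodule K V), σ a v ∈ (⊤ : Submodule K V) := fun _ _ _ => trivial
  have hfix' : ∀ v ∈ (⊤ : Submodule K V), (∀ a, σ a v = v) → v = 0 := fun v _ hv => hfix v hv
  have hvtw : ∀ (g : Γ) {χ : N →* Kˣ} {v : V}, v ∈ eig τN χ → v ≠ 0 →
      ρ g v ∈ eig τN (g • χ) ∧ ρ g v ≠ 0 := by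
    intro g χ v hv hv0
    refine ⟨map_eig_twist hcΓ g hv, fun h0 => hv0 ?_⟩
    have := inv_apply_apply ρ g v
    rw [h0, map_zero] at this
    exact this.symm
  have hsolvT : Group.IsSolvable T := by
    haveI : Group.IsNilpotent T := h.Tpg.isNilpotent
    infer_instance
  have hcopT : (Nat.card A).Coprime (Nat.card T) := by
    obtain ⟨k, hk⟩ := IsPGroup.iff_card.mp h.Tpg
    rw [hk]
    exact Nat.Coprime.pow_right _ h.sA
  have key : ∀ (χ : N →* Kˣ) (v : V), v ≠ 0 → v ∈ eig τN χ → ∀ z ∈ Zone N T, ∀ n ∈ N, ∀ m : N,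
      (m : Γ) = z * n * z⁻¹ * n⁻¹ → χ m = 1 := by
    intro χ v hv0 hv z hz n hn m hm
    by_cases hχ : χ = 1
    · rw [hχ]
      rfl
    set B := orbStab α h.normT χ with hB
    have hBtop : B ≠ ⊤ := by
      intro htop
      obtain ⟨τ, hτ, hfixτ⟩ := exists_fixed_of_orbit h.normT hcopT hsolvT χ (fun a => by
        have : a ∈ B := by
          rw [htop]
          trivial
        exact this)
      have h1 : stabOf θ (τ • χ) = ⊤ := by
        rw [eq_top_iff]
        intro a _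
        rw [← twist_eq_iff, htw]
        exact hfixτ a
      have h2 : τ • χ = 1 := by
        by_contra hne
        exact stab_ne_top_gen h.normN D.copN D.solvN h.fpfN hne h1
      apply hχ
      have h3 : χ = τ⁻¹ • (τ • χ) := (inv_smul_smul τ χ).symm
      rw [h3, h2]
      ext y
      rfl
    have hSB : ∀ τ ∈ T, stabOf θ (τ • χ) ≤ B := by
      intro τ hτ a ha
      rw [← twist_eq_iff, htw] at ha
      exact mem_orbStab_of_fixed hτ ha
    have hSne : ∀ τ ∈ T, stabOf θ (τ • χ) ≠ ⊥ := by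
      intro τ hτ
      obtain ⟨h1, h2⟩ := hvtw τ hv hv0
      exact stab_ne_bot τN σ θ hc ⊤ hW₀ hfix' hAK hNK h1 trivial h2
    have hBbot : B ≠ ⊥ := by
      intro h0
      have h1 := hSB 1 T.one_mem
      rw [h0, le_bot_iff] at h1
      exact hSne 1 T.one_mem h1
    have hBprime := prime_card_of_proper h.hp h.hq h.cardA B hBbot hBtop
    have hSeq : ∀ τ ∈ T, stabOf θ (τ • χ) = B := by
      intro τ hτ
      refine Subgroup.eq_of_le_of_card_ge (hSB τ hτ) ?_
      have h1 := Subgroup.card_dvd_of_le (hSB τ hτ)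
      rcases (Nat.dvd_prime hBprime).mp h1 with h2 | h2
      · exact absurd (Subgroup.card_eq_one.mp h2) (hSne τ hτ)
      · exact h2.ge
    obtain ⟨x, hxB, hx1⟩ := (Subgroup.bot_or_exists_ne_one B).resolve_left hBbot
    have hxfix : ∀ τ ∈ T, ∀ y : N, (τ • χ) (MulAut.conjNormal (α x) y) = (τ • χ) y := by
      intro τ hτ y
      have h1 : x ∈ stabOf θ (τ • χ) := by
        rw [hSeq τ hτ]
        exact hxB
      exact h1 y
    let R : Subgroup Γ := (⨅ τ : T, ((τ : Γ) • χ : N →* Kˣ).ker).map N.subtype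
    have hRmem : ∀ m : N, (m : Γ) ∈ R ↔ ∀ τ : T, ((τ : Γ) • χ : N →* Kˣ) m = 1 := by
      intro m
      constructor
      · rintro ⟨m', hm', hmm⟩
        have h1 : m' = m := Subtype.ext hmm
        subst h1
        intro τ
        have := (Subgroup.mem_iInf.mp hm') τ
        exact this
      · intro h1
        exact ⟨m, Subgroup.mem_iInf.mpr fun τ => h1 τ, rfl⟩
    have hRN : R ≤ N := Subgroup.map_subtype_le _
    have hRZ : ∀ z ∈ Zone N T, ∀ r ∈ R, z * r * z⁻¹ ∈ R := by
      rintro z hz _ ⟨r, hr, rfl⟩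
      have h0 : ((⟨r, r.2⟩ : N) : Γ) ∈ R := ⟨r, hr, rfl⟩
      have h1 := (hRmem r).mp h0
      have e : z * (r : Γ) * z⁻¹ = ((MulAut.conjNormal z r : N) : Γ) := rfl
      show z * (r : Γ) * z⁻¹ ∈ R
      rw [e, hRmem]
      intro τ
      have h2 := h1 ⟨z⁻¹ * τ, T.mul_mem (T.inv_mem (Zone_le hz)) τ.2⟩
      rw [hsmul, twist_apply] at h2 ⊢
      rw [← h2]
      congr 1
      apply Subtype.ext
      simp [MulAut.conjNormal_apply, mul_assoc]
    have hΦ : (frattini N).map N.subtype ≤ R := by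
      intro y hy
      have h1 := h.frattini_le hy
      rw [h.cen_eq_bot_of_comm hab] at h1
      rw [Subgroup.mem_bot.mp h1]
      exact R.one_mem
    have hxR : ∀ n ∈ N, α x * n * (α x)⁻¹ * n⁻¹ ∈ R := by
      intro n hn
      have e : α x * n * (α x)⁻¹ * n⁻¹ =
          ((MulAut.conjNormal (α x) ⟨n, hn⟩ * (⟨n, hn⟩ : N)⁻¹ : N) : Γ) := rfl
      rw [e, hRmem]
      intro τ
      rw [map_mul, map_inv, hxfix τ τ.2, mul_inv_cancel]
    have h1 := D.comm_mem_of_trivial_action hRN hRZ hΦ hx1 hxR z hz n hn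
    rw [← hm, hRmem] at h1
    have h2 := h1 1
    rw [Subgroup.coe_one, one_smul] at h2
    exact h2
  intro z hz n hn
  let m : N := ⟨z * n * z⁻¹ * n⁻¹, N.mul_mem (hN.conj_mem n hn z) (N.inv_mem hn)⟩
  have hcomm : ∀ a b, ∀ w ∈ (⊤ : Submodule K V), τN a (τN b w) = τN b (τN a w) := by
    intro a b w _
    show ρ a (ρ b w) = ρ b (ρ a w)
    rw [← Module.End.mul_apply, ← Module.End.mul_apply, ← map_mul, ← map_mul, hab a a.2 b b.2]
  have h1 := trivial_of_weights τN ⊤ (fun _ _ _ => trivial) hcomm hNK m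
    (fun μ v _ hv0 hv => key μ v hv0 hv z hz n hn m rfl)
  have h2 : ρ (m : Γ) = 1 := LinearMap.ext fun w => h1 w trivial
  have h3 : (m : Γ) = 1 := hρ (by rw [h2, map_one])
  have h4 : z * n * z⁻¹ * n⁻¹ = 1 := h3
  calc z * n = (z * n * z⁻¹ * n⁻¹) * (n * z) := by group
    _ = n * z := by rw [h4, one_mul]

end MinSetup

end

end Cfsg.Agent.Lib.PqFpf
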