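import Mathlib
import Cfsg.Agent.Lib.PqFpf.Ab

/-!
# The case of a nonabelian `N`
-/

set_option autoImplicit false
set_option linter.style.haveILetI false

namespace Cfsg.Agent.Lib.PqFpf

open Module Cfsg.Agent.Lib.OddOrder.HHGroup

variable {Γ A K V : Type*} [Group Γ] [Group A] [Finite Γ] [Finite A] [Field K] [AddCommGroup V]
  [Module K V]

/-- The elements of `N` whose commutators with `N` act trivially on `E`. -/
def comR (ρ : Γ →* End K V) (N : Subgroup Γ) (E : Submodule K V) (hNE : N ≤ stabE ρ E) : Subgroup Γ where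
  carrier := {m | m ∈ N ∧ ∀ w ∈ N, cm m w ∈ Te ρ E}
  one_mem' := by
    refine ⟨N.one_mem, fun w _ => ?_⟩
    have : cm (1 : Γ) w = 1 := by
      simp [cm]
    rw [this]
    exact one_mem _
  mul_mem' := by
    rintro a b ⟨ha, ha'⟩ ⟨hb, hb'⟩
    refine ⟨N.mul_mem ha hb, fun w hw => ?_⟩
    have e : cm (a * b) w = a * cm b w * a⁻¹ * cm a w := by
      simp only [cm]
      group
    rw [e]
    exact mul_mem (conj_mem_Te (hNE ha) (hb' w hw)) (ha' w hw)
  inv_mem' := by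
    rintro a ⟨ha, ha'⟩
    refine ⟨N.inv_mem ha, fun w hw => ?_⟩
    have e : cm a⁻¹ w = a⁻¹ * (cm a w)⁻¹ * a⁻¹⁻¹ := by
      simp only [cm]
      group
    rw [e]
    exact conj_mem_Te (hNE (N.inv_mem ha)) (inv_mem (ha' w hw))

/-- The representation on an invariant subspace of its stabiliser. -/
def stabRep (ρ : Γ →* End K V) (E : Submodule K V) : stabE ρ E →* End K E where
  toFun g := (ρ (g : Γ)).restrict g.2
  map_one' := by
    ext v
    simp
  map_mul' := by
    intro a b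
    ext v
    simp
    rfl

theorem stabRep_coe (ρ : Γ →* End K V) (E : Submodule K V) (g : stabE ρ E) (v : E) :
    ((stabRep ρ E g v : E) : V) = ρ (g : Γ) v := rfl

/-- The consequence of the Hall--Higman type lemma. -/
theorem comm_mem_Te_of_no_fixed [FiniteDimensional K V] {ρ : Γ →* End K V} {E : Submodule K V}
    {N : Subgroup Γ} [hN : N.Normal] (hNE : N ≤ stabE ρ E) {t ℓ : ℕ} [Fact t.Prime] (hℓ : ℓ.Prime)
    (htℓ : t ≠ ℓ) (ht2 : t ≠ 2) (htK : (t : K) ≠ 0) (hℓK : (ℓ : K) ≠ 0) (Npg : IsPGroup t N) {x : Γ}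
    (hxS : x ∈ stabE ρ E) (hx : x ^ ℓ = 1) (hfix : ∀ v ∈ E, ρ x v = v → v = 0) :
    ∀ n ∈ N, x * n * x⁻¹ * n⁻¹ ∈ Te ρ E := by
  intro n hn
  let S := stabE ρ E
  let x' : S := ⟨x, hxS⟩
  let Y : Subgroup S := N.subgroupOf S
  have hYp : IsPGroup t Y := Npg.of_equiv (Subgroup.subgroupOfEquivOfLe hNE).symm
  have h1 := centralizes_of_no_fixed_general (stabRep ρ E) hℓ htℓ ht2 htK hℓK x'
    (Subtype.ext hx) (fun v hv => Subtype.ext (hfix v v.2 (congrArg Subtype.val hv))) Y hYp (by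
      intro y hy
      refine Subgroup.mem_subgroupOf.mpr ?_
      exact hN.conj_mem _ (Subgroup.mem_subgroupOf.mp hy) x) ⟨n, hNE hn⟩
    (Subgroup.mem_subgroupOf.mpr hn)
  intro v hv
  have h2 := congrArg Subtype.val (LinearMap.congr_fun h1 ⟨ρ n⁻¹ v, hNE (N.inv_mem hn) v hv⟩)
  have h3 : ρ (x * n * x⁻¹) (ρ n⁻¹ v) = ρ n (ρ n⁻¹ v) := h2
  rw [map_mul, Module.End.mul_apply, h3, apply_inv_apply]

variable {α : A →* Γ} {N T : Subgroup Γ} [hN : N.Normal] {p q t s : ℕ}

namespace MinSetup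

/-- The case of a nonabelian `N`. -/
theorem nonabelian_case (h : MinSetup α N T p q t s) [IsAlgClosed K] [FiniteDimensional K V]
    (ρ : Γ →* End K V) (hρ : Function.Injective ρ) (htK : (t : K) ≠ 0)
    (hAK : (Nat.card A : K) ≠ 0) (hfix : ∀ v, (∀ a, ρ (α a) v = v) → v = 0)
    (hnab : ¬ ∀ a ∈ N, ∀ b ∈ N, a * b = b * a) : ∀ z ∈ Zone N T, ∀ n ∈ N, z * n = n * z := by
  classical
  haveI : Fact t.Prime := ⟨h.ht⟩
  haveI : Fact s.Prime := ⟨h.hs⟩
  have D := h.dualSetup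
  set C := cenN N T with hC
  have hCN : C ≤ N := inf_le_left
  let τC : C →* End K V := ρ.comp C.subtype
  let θ := conjOn α C h.normC
  let σ : A →* End K V := ρ.comp α
  have hc : ∀ a y, σ a * τC y = τC (θ a y) * σ a := by
    intro a y
    show ρ (α a) * ρ y = ρ (α a * y * (α a)⁻¹) * ρ (α a)
    rw [← map_mul, ← map_mul]
    congr 1
    group
  have hdvdK : ∀ {a b : ℕ}, a ∣ b → (b : K) ≠ 0 → (a : K) ≠ 0 := by
    rintro a b ⟨c, rfl⟩ hb h0
    apply hb
    rw [Nat.cast_mul, h0, zero_mul]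
  have hNK : (Nat.card N : K) ≠ 0 := h.card_N_ne htK
  have hCK : (Nat.card C : K) ≠ 0 := hdvdK (Subgroup.card_dvd_of_le hCN) hNK
  have hW₀ : ∀ a, ∀ v ∈ (⊤ : Submodule K V), σ a v ∈ (⊤ : Submodule K V) := fun _ _ _ => trivial
  have hfix' : ∀ v ∈ (⊤ : Submodule K V), (∀ a, σ a v = v) → v = 0 := fun v _ hv => hfix v hv
  have hcopC : (Nat.card A).Coprime (Nat.card C) :=
    Nat.Coprime.coprime_dvd_right (Subgroup.card_dvd_of_le hCN) D.copN
  have hsolvC : Group.IsSolvable C := by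
    haveI : Group.IsNilpotent C := (h.Npg.to_le hCN).isNilpotent
    infer_instance
  have key : ∀ (ξ : C →* Kˣ) (v : V), ξ ≠ 1 → v ≠ 0 → v ∈ eig τC ξ →
      ∀ z ∈ Zone N T, ∀ n ∈ N, ∀ w ∈ N, cm (z * n * z⁻¹ * n⁻¹) w ∈ Te ρ (eig τC ξ) := by
    intro ξ v hξ hv0 hv
    set E := eig τC ξ with hE
    have hEN : N ≤ stabE ρ E := by
      intro n hn u hu y
      have h1 : (y : Γ) * n = n * y := h.central y.2 hn
      show ρ (y : Γ) (ρ n u) = _
      rw [← Module.End.mul_apply, ← map_mul, h1, map_mul, Module.End.mul_apply]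
      have h4 : ρ (y : Γ) u = ((ξ y : Kˣ) : K) • u := hu y
      rw [h4, map_smul]
    have hET : T ≤ stabE ρ E := by
      intro n hn u hu y
      have h1 : (y : Γ) * n = n * y := ((mem_cenN.mp y.2).2 n hn).symm
      show ρ (y : Γ) (ρ n u) = _
      rw [← Module.End.mul_apply, ← map_mul, h1, map_mul, Module.End.mul_apply]
      have h4 : ρ (y : Γ) u = ((ξ y : Kˣ) : K) • u := hu y
      rw [h4, map_smul]
    have hS0 : stabOf θ ξ ≠ ⊥ := stab_ne_bot τC σ θ hc ⊤ hW₀ hfix' hAK hCK hv trivial hv0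
    have hS1 : stabOf θ ξ ≠ ⊤ := stab_ne_top_gen h.normC hcopC hsolvC h.fpfC hξ
    have hℓ := prime_card_of_proper h.hp h.hq h.cardA (stabOf θ ξ) hS0 hS1
    obtain ⟨x, hxS, hx1⟩ := (Subgroup.bot_or_exists_ne_one (stabOf θ ξ)).resolve_left hS0
    set ℓ := Nat.card (stabOf θ ξ) with hℓdef
    have hxℓ : x ^ ℓ = 1 := by
      have h1 := pow_card_eq_one' (x := (⟨x, hxS⟩ : stabOf θ ξ))
      exact congrArg Subtype.val h1
    have hαx : (α x) ^ ℓ = 1 := by rw [← map_pow, hxℓ, map_one]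
    have hℓA : ℓ ∣ Nat.card A := Subgroup.card_subgroup_dvd_card _
    have hℓK : (ℓ : K) ≠ 0 := hdvdK hℓA hAK
    have htℓ : t ≠ ℓ := by
      intro h1
      have h2 : t ∣ Nat.card A := h1 ▸ hℓA
      have := Nat.eq_one_of_dvd_coprimes h.tA h2 (dvd_refl t)
      exact h.ht.one_lt.ne' this
    have hxE : α x ∈ stabE ρ E := by
      intro u hu
      have h1 := map_eig_twist hc x hu
      rw [twist_eq_iff.mpr hxS] at h1
      exact h1
    have hfixE : ∀ u ∈ E, ρ (α x) u = u → u = 0 := fun u hu hux =>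
      fixed_weight_vector_eq_zero h.hp h.hq h.cardA τC σ θ hc ⊤ hW₀ hfix' hAK hCK hS1 hx1 hxS hu
        trivial hux
    have hZE : Zone N T ≤ stabE ρ E := Zone_le.trans hET
    have hEne : E ≠ ⊥ := by
      intro h0
      have h1 : v ∈ E := hv
      rw [h0, Submodule.mem_bot] at h1
      exact hv0 h1
    by_cases ht2 : t = 2
    · subst ht2
      have hF : FormHyp ρ N C E :=
        { CN := hCN
          central := fun c hc n hn => h.central hc hn
          comm := fun a ha b hb => h.comm_mem_cen ha hb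
          sq := fun a ha => h.frattini_le ⟨⟨a, ha⟩ * ⟨a, ha⟩, sq_mem_frattini h.Npg _, rfl⟩
          scal := fun c hc => ⟨((ξ ⟨c, hc⟩ : Kˣ) : K), fun u hu => hu ⟨c, hc⟩⟩
          Ene := hEne
          Ninv := fun n hn u hu => hEN hn u hu }
      intro z hz n hn w hw
      have h1 := hF.exc_main D h.frattini_le hZE hx1 hxE hℓ hxℓ hfixE hℓK hNK z hz n hn
      exact h1.2 w hw
    · set R := comR ρ N E hEN with hR
      have hRN : R ≤ N := fun _ hm => hm.1
      have hRZ : ∀ z ∈ Zone N T, ∀ r ∈ R, z * r * z⁻¹ ∈ R := by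
        intro z hz r hr
        refine ⟨hN.conj_mem r hr.1 z, fun w hw => ?_⟩
        have h1 := hr.2 (z⁻¹ * w * z) (by simpa using hN.conj_mem w hw z⁻¹)
        have h2 := conj_mem_Te (hZE hz) h1
        rw [← cm_conj] at h2
        simpa [mul_assoc] using h2
      have hCR : C ≤ R := by
        intro c hc
        refine ⟨hCN hc, fun w hw => ?_⟩
        have : cm c w = 1 := by
          simp only [cm]
          rw [h.central hc hw]
          group
        rw [this]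
        exact one_mem _
      have hxR : ∀ n ∈ N, α x * n * (α x)⁻¹ * n⁻¹ ∈ R := by
        intro n hn
        have h1 := comm_mem_Te_of_no_fixed hEN hℓ htℓ ht2 htK hℓK h.Npg hxE hαx hfixE n hn
        refine ⟨N.mul_mem (hN.conj_mem n hn _) (N.inv_mem hn), fun w hw => ?_⟩
        set m := α x * n * (α x)⁻¹ * n⁻¹
        have e : cm m w = m * (w * m⁻¹ * w⁻¹) := by
          simp only [cm]
          group
        rw [e]
        exact mul_mem h1 (conj_mem_Te (hEN hw) (inv_mem h1))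
      intro z hz n hn w hw
      exact (D.comm_mem_of_trivial_action hRN hRZ (h.frattini_le.trans hCR) hx1 hxR z hz n hn).2 w hw
  have hcomm : ∀ a b, ∀ w ∈ (⊤ : Submodule K V), τC a (τC b w) = τC b (τC a w) := by
    intro a b w _
    show ρ a (ρ b w) = ρ b (ρ a w)
    rw [← Module.End.mul_apply, ← Module.End.mul_apply, ← map_mul, ← map_mul,
      h.central a.2 (hCN b.2)]
  intro z hz n hn
  have hcN : z * n * z⁻¹ * n⁻¹ ∈ N := N.mul_mem (hN.conj_mem n hn z) (N.inv_mem hn)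
  refine h.comm_of_comm_mem (Zone_le hz) hn (h.mem_cen_of_central hnab hcN fun w hw => ?_)
  have hy : cm (z * n * z⁻¹ * n⁻¹) w ∈ C := h.comm_mem_cen hcN hw
  have h1 := trivial_of_weights τC ⊤ (fun _ _ _ => trivial) hcomm hCK ⟨_, hy⟩ (by
    intro ξ v _ hv0 hv
    by_cases hξ : ξ = 1
    · rw [hξ]
      rfl
    have h2 := key ξ v hξ hv0 hv z hz n hn w hw v hv
    have h3 : ρ (cm (z * n * z⁻¹ * n⁻¹) w) v = ((ξ ⟨_, hy⟩ : Kˣ) : K) • v := hv ⟨_, hy⟩
    rw [h3] at h2
    have h4 : ((ξ ⟨_, hy⟩ : Kˣ) : K) = 1 := smul_left_injective K hv0 (by simpa using h2)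
    exact Units.ext h4)
  have h2 : ρ (cm (z * n * z⁻¹ * n⁻¹) w) = 1 := LinearMap.ext fun u => h1 u trivial
  have h3 : cm (z * n * z⁻¹ * n⁻¹) w = 1 := hρ (by rw [h2, map_one])
  simp only [cm] at h3
  calc (z * n * z⁻¹ * n⁻¹) * w = ((z * n * z⁻¹ * n⁻¹) * w * (z * n * z⁻¹ * n⁻¹)⁻¹ * w⁻¹) *
        (w * (z * n * z⁻¹ * n⁻¹)) := by group
    _ = w * (z * n * z⁻¹ * n⁻¹) := by rw [h3, one_mul]

/-- The conclusion for a minimal pair: a contradiction. -/
theorem false_main (h : MinSetup α N T p q t s) [IsAlgClosed K] [FiniteDimensional K V]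
    (ρ : Γ →* End K V) (hρ : Function.Injective ρ) (htK : (t : K) ≠ 0)
    (hAK : (Nat.card A : K) ≠ 0) (hfix : ∀ v, (∀ a, ρ (α a) v = v) → v = 0) : False := by
  by_cases hab : ∀ a ∈ N, ∀ b ∈ N, a * b = b * a
  · exact h.false_of_comm (h.abelian_case ρ hρ htK hAK hfix hab)
  · exact h.false_of_comm (h.nonabelian_case ρ hρ htK hAK hfix hab)

end MinSetup

end Cfsg.Agent.Lib.PqFpf
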