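import Mathlib
import Cfsg.Agent.Lib.PqFpf.Nonab

/-!
# The key proposition on `t`-groups and `s`-groups acted on by `A`
-/

set_option autoImplicit false
set_option linter.style.haveILetI false

namespace Cfsg.Agent.Lib.PqFpf

open Module

variable {Γ A K V : Type*} [Group Γ] [Group A] [Finite Γ] [Finite A] [Field K] [AddCommGroup V]
  [Module K V]

/-- The faithful case of the key proposition. -/
theorem kp_faithful [IsAlgClosed K] [FiniteDimensional K V] (ρ : Γ →* End K V)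
    (hρ : Function.Injective ρ) (α : A →* Γ) {p q t s : ℕ} (hp : p.Prime) (hq : q.Prime)
    (cardA : Nat.card A = p * q) (ht : t.Prime) (hs : s.Prime) (hst : s ≠ t)
    (tA : (Nat.card A).Coprime t) (sA : (Nat.card A).Coprime s) (htK : (t : K) ≠ 0)
    (hAK : (Nat.card A : K) ≠ 0) (hfix : ∀ v, (∀ a, ρ (α a) v = v) → v = 0)
    (T : Subgroup Γ) (Tpg : IsPGroup s T) (normT : Norm α T) (fpfT : Fpf α T) :
    ∀ (n : ℕ) (N : Subgroup Γ), Nat.card N = n → IsPGroup t N → Norm α N → Fpf α N →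
      (∀ τ ∈ T, ∀ y ∈ N, τ * y * τ⁻¹ ∈ N) → ∀ τ ∈ T, ∀ y ∈ N, τ * y = y * τ := by
  intro n
  induction n using Nat.strong_induction_on with
  | _ n ih =>
  intro N hn Npg normN fpfN hTN
  by_contra hnc
  let Γ₀ : Subgroup Γ := Subgroup.normalizer (N : Set Γ)
  have hTΓ : T ≤ Γ₀ :=
    Cfsg.Agent.Lib.Coprime.InvSylow.le_normalizer_of_forall_conj_mem hTN
  have hαΓ : ∀ a, α a ∈ Γ₀ := fun a => range_le_normalizer normN ⟨a, rfl⟩
  have hNΓ : N ≤ Γ₀ := Subgroup.le_normalizer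
  let α₀ : A →* Γ₀ := α.codRestrict Γ₀ hαΓ
  let N₀ : Subgroup Γ₀ := N.subgroupOf Γ₀
  let T₀ : Subgroup Γ₀ := T.subgroupOf Γ₀
  let ρ₀ : Γ₀ →* End K V := ρ.comp Γ₀.subtype
  haveI hN₀ : N₀.Normal := Subgroup.normal_in_normalizer
  have hsetup : MinSetup α₀ N₀ T₀ p q t s :=
    { hp := hp
      hq := hq
      cardA := cardA
      ht := ht
      hs := hs
      hst := hst
      Npg := Npg.of_equiv (Subgroup.subgroupOfEquivOfLe hNΓ).symm
      Tpg := Tpg.of_equiv (Subgroup.subgroupOfEquivOfLe hTΓ).symm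
      tA := tA
      sA := sA
      normN := fun a y hy => Subgroup.mem_subgroupOf.mpr (normN a y (Subgroup.mem_subgroupOf.mp hy))
      normT := fun a y hy => Subgroup.mem_subgroupOf.mpr (normT a y (Subgroup.mem_subgroupOf.mp hy))
      fpfN := fun g hg hfx => Subtype.ext (fpfN g (Subgroup.mem_subgroupOf.mp hg)
        fun a => congrArg Subtype.val (hfx a))
      fpfT := fun g hg hfx => Subtype.ext (fpfT g (Subgroup.mem_subgroupOf.mp hg)
        fun a => congrArg Subtype.val (hfx a))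
      hmin := by
        intro N₁ hN₁ hne hnorm hinv τ hτ y hy
        let N₂ : Subgroup Γ := N₁.map Γ₀.subtype
        have hN₂N : N₂ ≤ N := by
          rintro _ ⟨w, hw, rfl⟩
          exact Subgroup.mem_subgroupOf.mp (hN₁ hw)
        have hN₂ne : N₂ ≠ N := by
          intro h0
          apply hne
          apply le_antisymm hN₁
          intro w hw
          have h1 : (w : Γ) ∈ N₂ := by
            rw [h0]
            exact Subgroup.mem_subgroupOf.mp hw
          obtain ⟨w', hw', hww⟩ := h1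
          have h2 : w' = w := Subtype.ext hww
          rwa [← h2]
        have hlt : Nat.card N₂ < n := by
          rw [← hn]
          exact Nat.lt_of_le_of_ne (Nat.le_of_dvd Nat.card_pos (Subgroup.card_dvd_of_le hN₂N))
            (fun e => hN₂ne (Subgroup.eq_of_le_of_card_ge hN₂N e.ge))
        have h1 := ih _ hlt N₂ rfl (Npg.to_le hN₂N) (by
            rintro a _ ⟨w, hw, rfl⟩
            have h2 := hnorm a w hw
            exact ⟨_, h2, rfl⟩) (fpfN.mono hN₂N) (by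
            rintro τ' hτ' _ ⟨w, hw, rfl⟩
            have h2 := hinv ⟨τ', hTΓ hτ'⟩ (Subgroup.mem_subgroupOf.mpr hτ') w hw
            exact ⟨_, h2, rfl⟩)
          (τ : Γ) (Subgroup.mem_subgroupOf.mp hτ) (y : Γ) ⟨y, hy, rfl⟩
        exact Subtype.ext h1
      nc := by
        intro h1
        apply hnc
        intro τ hτ y hy
        exact congrArg Subtype.val (h1 ⟨τ, hTΓ hτ⟩ (Subgroup.mem_subgroupOf.mpr hτ) ⟨y, hNΓ hy⟩
          (Subgroup.mem_subgroupOf.mpr hy)) }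
  exact hsetup.false_main ρ₀ (hρ.comp Γ₀.subtype_injective) htK hAK (fun v hv => hfix v hv)

theorem kp_aux [IsAlgClosed K] [FiniteDimensional K V] {Γ' : Type*} [Group Γ'] [Finite Γ']
    (π : Γ →* Γ') (ρ' : Γ' →* End K V) (hρ' : Function.Injective ρ') (α : A →* Γ) {p q t s : ℕ}
    (hp : p.Prime) (hq : q.Prime) (cardA : Nat.card A = p * q) (ht : t.Prime) (hs : s.Prime)
    (hst : s ≠ t) (tA : (Nat.card A).Coprime t) (sA : (Nat.card A).Coprime s) (htK : (t : K) ≠ 0)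
    (hAK : (Nat.card A : K) ≠ 0) (hfix : ∀ v, (∀ a, ρ' (π (α a)) v = v) → v = 0)
    (N T : Subgroup Γ) (Npg : IsPGroup t N) (Tpg : IsPGroup s T) (normN : Norm α N)
    (normT : Norm α T) (fpfN : Fpf α N) (fpfT : Fpf α T) (hTN : ∀ τ ∈ T, ∀ y ∈ N, τ * y * τ⁻¹ ∈ N) :
    ∀ τ ∈ T, ∀ y ∈ N, π τ * π y = π y * π τ := by
  haveI : Fact t.Prime := ⟨ht⟩
  haveI : Fact s.Prime := ⟨hs⟩
  have hsolvN : Group.IsSolvable N := by
    haveI : Group.IsNilpotent N := Npg.isNilpotent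
    infer_instance
  have hsolvT : Group.IsSolvable T := by
    haveI : Group.IsNilpotent T := Tpg.isNilpotent
    infer_instance
  have hcopN : (Nat.card A).Coprime (Nat.card N) := by
    obtain ⟨k, hk⟩ := IsPGroup.iff_card.mp Npg
    rw [hk]
    exact Nat.Coprime.pow_right _ tA
  have hcopT : (Nat.card A).Coprime (Nat.card T) := by
    obtain ⟨k, hk⟩ := IsPGroup.iff_card.mp Tpg
    rw [hk]
    exact Nat.Coprime.pow_right _ sA
  have h1 := kp_faithful ρ' hρ' (π.comp α) hp hq cardA ht hs hst tA sA htK hAK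
    hfix (T.map π) (Tpg.map π) (normT.map π)
    (Fpf.map π normT hcopT hsolvT fpfT) _ (N.map π) rfl (Npg.map π) (normN.map π)
    (Fpf.map π normN hcopN hsolvN fpfN) (by
      rintro _ ⟨τ, hτ, rfl⟩ _ ⟨y, hy, rfl⟩
      exact ⟨τ * y * τ⁻¹, hTN τ hτ y hy, by simp⟩)
  intro τ hτ y hy
  exact h1 (π τ) ⟨τ, hτ, rfl⟩ (π y) ⟨y, hy, rfl⟩

/-- **The key proposition.** -/
theorem kp [IsAlgClosed K] [FiniteDimensional K V] (ρ : Γ →* End K V) (α : A →* Γ) {p q t s : ℕ}
    (hp : p.Prime) (hq : q.Prime) (cardA : Nat.card A = p * q) (ht : t.Prime) (hs : s.Prime)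
    (hst : s ≠ t) (tA : (Nat.card A).Coprime t) (sA : (Nat.card A).Coprime s) (htK : (t : K) ≠ 0)
    (hAK : (Nat.card A : K) ≠ 0) (hfix : ∀ v, (∀ a, ρ (α a) v = v) → v = 0)
    (N T : Subgroup Γ) (Npg : IsPGroup t N) (Tpg : IsPGroup s T) (normN : Norm α N)
    (normT : Norm α T) (fpfN : Fpf α N) (fpfT : Fpf α T) (hTN : ∀ τ ∈ T, ∀ y ∈ N, τ * y * τ⁻¹ ∈ N) :
    ∀ τ ∈ T, ∀ y ∈ N, ρ (τ * y) = ρ (y * τ) := by
  let ρu : Γ →* (End K V)ˣ := ρ.toHomUnits
  let Γ' : Subgroup (End K V)ˣ := ρu.range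
  haveI : Finite Γ' := Set.finite_range ρu
  let π : Γ →* Γ' := ρu.rangeRestrict
  let ρ' : Γ' →* End K V := (Units.coeHom _).comp Γ'.subtype
  have hρ' : Function.Injective ρ' := fun a b hab => Subtype.ext (Units.ext hab)
  have hρπ : ∀ g, ρ' (π g) = ρ g := fun _ => rfl
  have h1 := kp_aux π ρ' hρ' α hp hq cardA ht hs hst tA sA htK hAK
    (fun v hv => hfix v (fun a => by rw [← hρπ]; exact hv a)) N T Npg Tpg normN normT fpfN fpfT hTN
  intro τ hτ y hy
  calc ρ (τ * y) = ρ' (π τ * π y) := by rw [← hρπ, map_mul π]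
    _ = ρ' (π y * π τ) := by rw [h1 τ hτ y hy]
    _ = ρ (y * τ) := by rw [← hρπ, map_mul π]

end Cfsg.Agent.Lib.PqFpf
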