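import Mathlib
import Cfsg.Agent.Lib.PqFpf.KP
import Cfsg.Agent.Lib.Nilpotent.Fitting
import Cfsg.Agent.Lib.Basic.PCore
import Cfsg.Agent.Lib.Coprime.SZ

/-!
# Nilpotence from the key proposition
-/

set_option autoImplicit false
set_option linter.style.haveILetI false

namespace Cfsg.Agent.Lib.PqFpf

open Module Cfsg
open Cfsg.Agent.Lib.Nilpotent

/-- A solvable group in which Sylow `s`-subgroups centralise the `t`-cores, `t ≠ s`, is nilpotent. -/
theorem isNilpotent_of_sylow_centralizes {H : Type*} [Group H] [Finite H] [hsolv : Group.IsSolvable H]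
    (hyp : ∀ (s t : ℕ) [Fact s.Prime] [Fact t.Prime], s ≠ t →
      ∃ S : Sylow s H, ∀ τ ∈ (S : Subgroup H), ∀ n ∈ pCore t H, τ * n = n * τ) :
    Group.IsNilpotent H := by
  classical
  by_contra hnil
  set F := fittingSubgroup H with hFdef
  haveI hFn : F.Normal := Fitting.fittingSubgroup_normal
  have hFnil : Group.IsNilpotent F := Fitting.isNilpotent_fittingSubgroup
  have hne : F ≠ ⊤ := by
    intro h0
    apply hnil
    have : Group.IsNilpotent (⊤ : Subgroup H) := h0 ▸ hFnil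
    exact Group.isNilpotent_top.mp this
  haveI : Nontrivial (H ⧸ F) := QuotientGroup.nontrivial_iff.mpr hne
  obtain ⟨s, hs, Q, hQn, hQne, hQp⟩ := Cfsg.Agent.Lib.Coprime.SZ.exists_normal_pgroup_of_solvable (X := H ⧸ F)
  haveI : Fact s.Prime := ⟨hs⟩
  let π : H →* H ⧸ F := QuotientGroup.mk' F
  have hπ : Function.Surjective π := QuotientGroup.mk'_surjective F
  let L : Subgroup H := Q.comap π
  haveI hLn : L.Normal := Subgroup.Normal.comap hQn π
  let S₀ : Sylow s H := default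
  have hcent : ∀ (t : ℕ) [Fact t.Prime], t ≠ s → ∀ τ ∈ (S₀ : Subgroup H), ∀ n ∈ pCore t H,
      τ * n = n * τ := by
    intro t _ hts τ hτ n hn
    obtain ⟨S, hS⟩ := hyp s t hts.symm
    obtain ⟨g, hg⟩ := MulAction.exists_smul_eq H S S₀
    have hτ' : g⁻¹ * τ * g ∈ (S : Subgroup H) := by
      have h1 : τ ∈ ((g • S : Sylow s H) : Subgroup H) := by
        rw [hg]
        exact hτ
      rw [Sylow.coe_subgroup_smul, Subgroup.mem_pointwise_smul_iff_inv_smul_mem] at h1
      simpa [MulAut.inv_apply_self, mul_assoc] using h1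
    have hn' : g⁻¹ * n * g ∈ pCore t H := by
      simpa using (Fitting.pCore_normal t).conj_mem n hn g⁻¹
    have h2 := hS _ hτ' _ hn'
    have h3 : g * ((g⁻¹ * τ * g) * (g⁻¹ * n * g)) * g⁻¹ = τ * n := by group
    have h4 : g * ((g⁻¹ * n * g) * (g⁻¹ * τ * g)) * g⁻¹ = n * τ := by group
    rw [← h3, ← h4, h2]
  let F₀ : Subgroup H := ⨆ t : {t : Nat.Primes // (t : ℕ) ≠ s}, pCore (t.1 : ℕ) H
  have hF₀cent : F₀ ≤ Subgroup.centralizer ((S₀ : Subgroup H) : Set H) := by
    apply iSup_le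
    rintro ⟨⟨t, ht⟩, hts⟩ n hn
    haveI : Fact t.Prime := ⟨ht⟩
    rw [Subgroup.mem_centralizer_iff]
    intro τ hτ
    exact hcent t hts τ hτ n hn
  have hF₀F : F₀ ≤ F := by
    apply iSup_le
    rintro ⟨⟨t, ht⟩, hts⟩
    haveI : Fact t.Prime := ⟨ht⟩
    exact Fitting.pCore_le_fittingSubgroup t
  have hF₀nil : Group.IsNilpotent F₀ := Fitting.isNilpotent_of_le hF₀F hFnil
  have hSF : F ≤ (S₀ : Subgroup H) ⊔ F₀ := by
    rw [hFdef, Fitting.fittingSubgroup_eq_iSup_primes]
    apply iSup_le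
    rintro ⟨t, ht⟩
    by_cases hts : t = s
    · subst hts
      exact (Cfsg.Agent.Lib.Basic.PCore.pCore_le_sylow S₀).trans le_sup_left
    · exact (le_iSup (fun t : {t : Nat.Primes // (t : ℕ) ≠ s} => pCore (t.1 : ℕ) H)
        ⟨⟨t, ht⟩, hts⟩).trans le_sup_right
  have hL : L ≤ (S₀ : Subgroup H) ⊔ F₀ := by
    intro x hx
    let P : Sylow s (H ⧸ F) := S₀.mapSurjective hπ
    have hQP : Q ≤ P := IsPGroup.le_sylow_of_normal hQp P
    have h1 : π x ∈ Q := hx
    have h2 : π x ∈ (S₀ : Subgroup H).map π := hQP h1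
    obtain ⟨y, hy, hyx⟩ := h2
    have h3 : y⁻¹ * x ∈ F := QuotientGroup.eq.mp hyx
    have h4 : x = y * (y⁻¹ * x) := by group
    rw [h4]
    exact Subgroup.mul_mem _ ((le_sup_left : (S₀ : Subgroup H) ≤ _) hy) (hSF h3)
  have hK : Group.IsNilpotent ((S₀ : Subgroup H) ⊔ F₀ : Subgroup H) := by
    let f := MonoidHom.noncommCoprod (S₀ : Subgroup H).subtype F₀.subtype (fun a b => by
      have h1 := Subgroup.mem_centralizer_iff.mp (hF₀cent b.2) a a.2
      exact h1)
    have hr : f.range = (S₀ : Subgroup H) ⊔ F₀ := by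
      exact (MonoidHom.noncommCoprod_range _ _ _).trans (by
        rw [Subgroup.range_subtype, Subgroup.range_subtype])
    haveI : Group.IsNilpotent (S₀ : Subgroup H) := S₀.isPGroup'.isNilpotent
    rw [← hr]
    exact Group.nilpotent_of_surjective f.rangeRestrict f.rangeRestrict_surjective
  have hLnil : Group.IsNilpotent L := Fitting.isNilpotent_of_le hL hK
  have hLF : L ≤ F := Fitting.le_fittingSubgroup hLnil
  apply hQne
  rw [eq_bot_iff]
  intro q hq
  obtain ⟨x, rfl⟩ := hπ q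
  have h1 : x ∈ L := hq
  exact (QuotientGroup.eq_one_iff x).mpr (hLF h1)

variable {Γ A K V : Type*} [Group Γ] [Group A] [Finite Γ] [Finite A] [Field K] [AddCommGroup V]
  [Module K V]

/-- The core theorem: a coprime solvable subgroup acting faithfully in characteristic `r`, with trivial
`r`-core, is nilpotent. -/
theorem core_nilpotent [IsAlgClosed K] [FiniteDimensional K V] {r : ℕ} [CharP K r]
    (ρ : Γ →* End K V) (α : A →* Γ) {p q : ℕ} (hp : p.Prime) (hq : q.Prime)
    (cardA : Nat.card A = p * q) (hAK : (Nat.card A : K) ≠ 0)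
    (hfix : ∀ v, (∀ a, ρ (α a) v = v) → v = 0) (H : Subgroup Γ) (hsolv : Group.IsSolvable H)
    (hcop : (Nat.card A).Coprime (Nat.card H)) (normH : Norm α H) (fpfH : Fpf α H)
    (hρH : ∀ h ∈ H, ρ h = 1 → h = 1) (hcore : pCore r H = ⊥) : Group.IsNilpotent H := by
  classical
  apply isNilpotent_of_sylow_centralizes
  intro s t _ _ hst
  have hsp : s.Prime := Fact.out
  have htp : t.Prime := Fact.out
  have hbot : ∀ τ ∈ ((default : Sylow s H) : Subgroup H), ∀ n ∈ pCore t H, n = 1 →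
      τ * n = n * τ := by
    rintro τ - n - rfl
    rw [mul_one, one_mul]
  by_cases htH : t ∣ Nat.card H
  swap
  · refine ⟨default, fun τ hτ n hn => hbot τ hτ n hn ?_⟩
    have h1 : IsPGroup t (pCore t H) := Fitting.isPGroup_pCore t
    obtain ⟨k, hk⟩ := IsPGroup.iff_card.mp h1
    have h2 : Nat.card (pCore t H) ∣ Nat.card H := Subgroup.card_subgroup_dvd_card _
    rw [hk] at h2
    have h3 : k = 0 := by
      by_contra hk0
      exact htH ((dvd_pow_self t hk0).trans h2)
    rw [h3, pow_zero] at hk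
    have h4 := Subgroup.card_eq_one.mp hk
    rw [h4] at hn
    exact Subgroup.mem_bot.mp hn
  by_cases hsH : s ∣ Nat.card H
  swap
  · refine ⟨default, fun τ hτ n _ => ?_⟩
    have h1 := Sylow.isPGroup' (default : Sylow s H)
    obtain ⟨k, hk⟩ := IsPGroup.iff_card.mp h1
    have h2 : Nat.card (default : Sylow s H) ∣ Nat.card H := Subgroup.card_subgroup_dvd_card _
    rw [hk] at h2
    have h3 : k = 0 := by
      by_contra hk0
      exact hsH ((dvd_pow_self s hk0).trans h2)
    rw [h3, pow_zero] at hk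
    have h4 := Subgroup.card_eq_one.mp hk
    rw [h4] at hτ
    rw [Subgroup.mem_bot.mp hτ, mul_one, one_mul]
  by_cases htr : t = r
  · subst htr
    refine ⟨default, fun τ hτ n hn => hbot τ hτ n hn ?_⟩
    rw [hcore] at hn
    exact Subgroup.mem_bot.mp hn
  have htK : (t : K) ≠ 0 := by
    intro h0
    rw [CharP.cast_eq_zero_iff K r] at h0
    have hAK' : r ≠ 1 := by
      rintro rfl
      exact hAK (by
        rw [CharP.cast_eq_zero_iff K 1]
        exact one_dvd _)
    exact htr (((Nat.dvd_prime htp).mp h0).resolve_left hAK').symm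
  have tA : (Nat.card A).Coprime t := Nat.Coprime.coprime_dvd_right htH hcop
  have sA : (Nat.card A).Coprime s := Nat.Coprime.coprime_dvd_right hsH hcop
  obtain ⟨P, hP⟩ := Cfsg.Agent.Lib.Coprime.InvSylow.exists_invariant_sylow (A := α.range) (K := H)
    (range_le_normalizer normH) (coprime_range hcop) (Or.inr hsolv) s
  set T : Subgroup Γ := (P : Subgroup H).map H.subtype with hT
  set N : Subgroup Γ := (pCore t H).map H.subtype with hN
  have hTH : T ≤ H := Subgroup.map_subtype_le _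
  have hNH : N ≤ H := Subgroup.map_subtype_le _
  have normT : Norm α T := fun a y hy => (Subgroup.mem_normalizer_iff.mp (hP ⟨a, rfl⟩) y).mp hy
  have normN : Norm α N := by
    rintro a _ ⟨y, hy, rfl⟩
    refine ⟨conjOn α H normH a y, ?_, rfl⟩
    have hc : (pCore t H).Characteristic := Cfsg.Agent.Lib.Basic.PCore.pCore_char t H
    have h1 := (Subgroup.characteristic_iff_comap_eq.mp hc) (conjOn α H normH a)⁻¹
    have h2 : (conjOn α H normH a)⁻¹ (conjOn α H normH a y) = y := MulAut.inv_apply_self _ _ _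
    rw [← h1] 
    show (conjOn α H normH a)⁻¹ (conjOn α H normH a y) ∈ pCore t H
    rw [h2]
    exact hy
  have Tpg : IsPGroup s T := P.isPGroup'.map _
  have Npg : IsPGroup t N := (Fitting.isPGroup_pCore t).map _
  have hTN : ∀ τ ∈ T, ∀ y ∈ N, τ * y * τ⁻¹ ∈ N := by
    rintro _ ⟨τ, -, rfl⟩ _ ⟨y, hy, rfl⟩
    exact ⟨τ * y * τ⁻¹, (Fitting.pCore_normal t).conj_mem y hy τ, rfl⟩
  have key := kp ρ α hp hq cardA htp hsp hst tA sA htK hAK hfix N T Npg Tpg normN normT
    (fpfH.mono hNH) (fpfH.mono hTH) hTN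
  refine ⟨P, fun τ hτ n hn => ?_⟩
  have h1 := key τ ⟨τ, hτ, rfl⟩ n ⟨n, hn, rfl⟩
  have h2 : ρ ((τ : Γ) * n * (τ : Γ)⁻¹ * (n : Γ)⁻¹) = 1 := by
    have h3 : (τ : Γ) * n * (τ : Γ)⁻¹ * (n : Γ)⁻¹ = ((τ : Γ) * n) * ((n : Γ) * τ)⁻¹ := by group
    rw [h3, map_mul, h1, ← map_mul, mul_inv_cancel, map_one]
  have h3 := hρH _ (H.mul_mem (H.mul_mem (H.mul_mem τ.2 n.2) (H.inv_mem τ.2)) (H.inv_mem n.2)) h2
  apply Subtype.ext
  calc (τ : Γ) * n = ((τ : Γ) * n * (τ : Γ)⁻¹ * (n : Γ)⁻¹) * ((n : Γ) * τ) := by group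
    _ = (n : Γ) * τ := by rw [h3, one_mul]

end Cfsg.Agent.Lib.PqFpf
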