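import Mathlib
import Cfsg.Agent.Lib.PqFpf.Nilp

/-!
# Coprime fixed-point-free action of a group of order `pq`: Fitting length at most two
-/

set_option autoImplicit false
set_option linter.style.haveILetI false

namespace Cfsg.Agent.Lib.PqFpf

open Module Cfsg Cfsg.Agent.Lib.S3Fpf

section Semi

variable {G A : Type*} [Group G] [Group A] (φ : A →* MulAut G)

theorem sd_conj (a : A) (n : G) :
    (SemidirectProduct.inr a : G ⋊[φ] A) * SemidirectProduct.inl n * (SemidirectProduct.inr a)⁻¹ =
      SemidirectProduct.inl (φ a n) := by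
  rw [← map_inv]
  exact (SemidirectProduct.inl_aut a n).symm

theorem norm_range : Norm (SemidirectProduct.inr : A →* G ⋊[φ] A) (SemidirectProduct.inl : G →* G ⋊[φ] A).range := by
  rintro a _ ⟨n, rfl⟩
  exact ⟨φ a n, (sd_conj φ a n).symm⟩

theorem fpf_range (hfpf : ∀ g, (∀ a, φ a g = g) → g = 1) :
    Fpf (SemidirectProduct.inr : A →* G ⋊[φ] A) (SemidirectProduct.inl : G →* G ⋊[φ] A).range := by
  rintro _ ⟨n, rfl⟩ h1
  rw [hfpf n (fun a => SemidirectProduct.inl_injective (by
    rw [← sd_conj]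
    exact h1 a)), map_one]

theorem card_range : Nat.card (SemidirectProduct.inl : G →* G ⋊[φ] A).range = Nat.card G :=
  Nat.card_congr (MonoidHom.ofInjective SemidirectProduct.inl_injective).symm.toEquiv

theorem solv_range [Group.IsSolvable G] :
    Group.IsSolvable (SemidirectProduct.inl : G →* G ⋊[φ] A).range :=
  Group.isSolvable_of_surjective (f := (SemidirectProduct.inl : G →* G ⋊[φ] A).rangeRestrict)
    (SemidirectProduct.inl : G →* G ⋊[φ] A).rangeRestrict_surjective

variable [Finite G] [Finite A] [Group.IsSolvable G]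

theorem finite_sd : Finite (G ⋊[φ] A) := Finite.of_equiv _ SemidirectProduct.equivProd.symm

/-- The coset lemma inside `G`. -/
theorem mem_of_coset_fixed_sd (hcop : (Nat.card A).Coprime (Nat.card G))
    (hfpf : ∀ g, (∀ a, φ a g = g) → g = 1) {S : Subgroup G} (hS : ∀ a, ∀ y ∈ S, φ a y ∈ S) {x : G}
    (hx : ∀ a, x⁻¹ * φ a x ∈ S) : x ∈ S := by
  haveI := finite_sd φ
  have h1 := mem_of_coset_fixed (α := (SemidirectProduct.inr : A →* G ⋊[φ] A))
    (H := (SemidirectProduct.inl : G →* G ⋊[φ] A).range)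
    (S := S.map SemidirectProduct.inl) (t := SemidirectProduct.inl x) (norm_range φ)
    (by rwa [card_range]) (solv_range φ) (fpf_range φ hfpf) (by
      rintro _ ⟨y, -, rfl⟩
      exact ⟨y, rfl⟩) (by
      rintro a _ ⟨y, hy, rfl⟩
      exact ⟨φ a y, hS a y hy, (sd_conj φ a y).symm⟩) ⟨x, rfl⟩ (by
      intro a
      refine ⟨x⁻¹ * φ a x, hx a, ?_⟩
      rw [sd_conj, map_mul, map_inv])
  obtain ⟨y, hy, hyx⟩ := h1
  rwa [← SemidirectProduct.inl_injective hyx]

end Semi

section Rep

variable {G A K V : Type*} [Group G] [Group A] [Finite G] [Finite A] [Group.IsSolvable G] [Field K]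
  [AddCommGroup V] [Module K V]

/-- The quotient by the kernel of a representation of `G ⋊ A`, in which `r`-core of `G` is the kernel on
`G`, is nilpotent. -/
theorem nilpotent_of_rep [IsAlgClosed K] [FiniteDimensional K V] {r : ℕ} [Fact r.Prime] [CharP K r]
    (φ : A →* MulAut G) {p q : ℕ} (hp : p.Prime) (hq : q.Prime) (cardA : Nat.card A = p * q)
    (hcop : (Nat.card G).Coprime (p * q)) (hfpf : ∀ g, (∀ a, φ a g = g) → g = 1)
    (hAK : (Nat.card A : K) ≠ 0) (ρ : G ⋊[φ] A →* End K V)
    (hfix : ∀ v, (∀ a, ρ (SemidirectProduct.inr a) v = v) → v = 0)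
    (hker : ∀ x : G, ρ (SemidirectProduct.inl x) = 1 ↔ x ∈ pCore r G) :
    Group.IsNilpotent (G ⧸ pCore r G) := by
  classical
  haveI := finite_sd φ
  let ι : G →* G ⋊[φ] A := SemidirectProduct.inl
  let α : A →* G ⋊[φ] A := SemidirectProduct.inr
  let ρu : G ⋊[φ] A →* (End K V)ˣ := ρ.toHomUnits
  let Γ' : Subgroup (End K V)ˣ := ρu.range
  haveI : Finite Γ' := Set.finite_range ρu
  let π : G ⋊[φ] A →* Γ' := ρu.rangeRestrict
  let ρ' : Γ' →* End K V := (Units.coeHom _).comp Γ'.subtype
  have hρ' : Function.Injective ρ' := fun a b hab => Subtype.ext (Units.ext hab)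
  have hρπ : ∀ g, ρ' (π g) = ρ g := fun _ => rfl
  let H₀ : Subgroup (G ⋊[φ] A) := ι.range
  let H' : Subgroup Γ' := H₀.map π
  have hcopA : (Nat.card A).Coprime (Nat.card H₀) := by
    rw [card_range, cardA]
    exact hcop.symm
  have hsolvH₀ : Group.IsSolvable H₀ := solv_range φ
  have hcopH' : (Nat.card A).Coprime (Nat.card H') :=
    Nat.Coprime.coprime_dvd_right (Subgroup.card_map_dvd H₀ π) hcopA
  let f : G →* H' := (π.comp ι).codRestrict H' (fun g => ⟨ι g, ⟨g, rfl⟩, rfl⟩)
  have hfcoe : ∀ g, ((f g : H') : Γ') = π (ι g) := fun _ => rfl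
  have hfsurj : Function.Surjective f := by
    rintro ⟨_, _, ⟨x, rfl⟩, rfl⟩
    exact ⟨x, rfl⟩
  have hsolvH' : Group.IsSolvable H' := Group.isSolvable_of_surjective (f := f) hfsurj
  have hfker : ∀ x, f x = 1 ↔ x ∈ pCore r G := by
    intro x
    rw [← hker]
    constructor
    · intro h1
      have h2 : π (ι x) = 1 := congrArg Subtype.val h1
      rw [← hρπ]
      show ρ' (π (ι x)) = 1
      rw [h2, map_one]
    · intro h1
      apply Subtype.ext
      apply hρ'
      show ρ' (π (ι x)) = ρ' 1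
      rw [hρπ, map_one]
      exact h1
  have hP0 : IsPGroup r (pCore r G) := Cfsg.Agent.Lib.Basic.PCore.pCore_isPGroup r
  have hcore' : pCore r H' = ⊥ := by
    set Q := pCore r H' with hQ
    have hQp : IsPGroup r Q := Cfsg.Agent.Lib.Basic.PCore.pCore_isPGroup r
    have hkerp : IsPGroup r f.ker := by
      have h1 : f.ker = pCore r G := by
        ext x
        rw [MonoidHom.mem_ker]
        exact hfker x
      rw [h1]
      exact hP0
    have hM : IsPGroup r (Q.comap f) := hQp.comap_of_ker_isPGroup f hkerp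
    haveI hQn : Q.Normal := Cfsg.Agent.Lib.Basic.PCore.pCore_normal r H'
    haveI hMn : (Q.comap f).Normal := Subgroup.Normal.comap hQn f
    have hle := Cfsg.Agent.Lib.Basic.PCore.le_pCore (N := Q.comap f) inferInstance hM
    rw [eq_bot_iff]
    intro y hy
    obtain ⟨x, rfl⟩ := hfsurj y
    exact Subgroup.mem_bot.mpr ((hfker x).mpr (hle hy))
  have hnil : Group.IsNilpotent H' := core_nilpotent ρ' (π.comp α) hp hq cardA hAK
    (fun v hv => hfix v fun a => by
      rw [← hρπ]
      exact hv a) H' hsolvH' hcopH' (Norm.map π (norm_range φ))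
    (Fpf.map π (norm_range φ) hcopA hsolvH₀ (fpf_range φ hfpf))
    (fun h _ h1 => hρ' (by rw [h1, map_one])) hcore'
  let g : G ⧸ pCore r G →* H' := QuotientGroup.lift (pCore r G) f (fun x hx => (hfker x).mpr hx)
  refine Subgroup.isNilpotent_of_ker_le_center g ?_
  intro y hy
  obtain ⟨x, rfl⟩ := QuotientGroup.mk_surjective y
  have h1 : f x = 1 := hy
  rw [(QuotientGroup.eq_one_iff x).mpr ((hfker x).mp h1)]
  exact one_mem _

/-- The dual of the `r`-core, with the kernel on `G`. -/
theorem nilpotent_quot (φ : A →* MulAut G) {p q : ℕ} (hp : p.Prime) (hq : q.Prime)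
    (cardA : Nat.card A = p * q) (hcop : (Nat.card G).Coprime (p * q))
    (hfpf : ∀ g, (∀ a, φ a g = g) → g = 1) (r : ℕ) [hr : Fact r.Prime]
    (hcore : pPrimeCore r G = ⊥) : Group.IsNilpotent (G ⧸ pCore r G) := by
  classical
  by_cases hrA : r ∣ p * q
  · have hc : (Nat.card G).Coprime r := Nat.Coprime.coprime_dvd_right hrA hcop
    have htop : (⊤ : Subgroup G) ≤ pPrimeCore r G :=
      le_sSup ⟨inferInstance, by rwa [Subgroup.card_top]⟩
    rw [hcore] at htop
    have hss : Subsingleton G := ⟨fun a b => by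
      rw [Subgroup.mem_bot.mp (htop (Subgroup.mem_top a)), Subgroup.mem_bot.mp (htop (Subgroup.mem_top b))]⟩
    haveI : Subsingleton (G ⧸ pCore r G) := QuotientGroup.mk_surjective.subsingleton
    infer_instance
  let K' := AlgebraicClosure (ZMod r)
  haveI := finite_sd φ
  let ι : G →* G ⋊[φ] A := SemidirectProduct.inl
  let α : A →* G ⋊[φ] A := SemidirectProduct.inr
  have hιinj : Function.Injective ι := SemidirectProduct.inl_injective
  have hconj : ∀ a n, α a * ι n * (α a)⁻¹ = ι (φ a n) := sd_conj φ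
  haveI hP0n : (pCore r G).Normal := Cfsg.Agent.Lib.Basic.PCore.pCore_normal r G
  haveI hP0c : (pCore r G).Characteristic := Cfsg.Agent.Lib.Basic.PCore.pCore_char r G
  have hP0p : IsPGroup r (pCore r G) := Cfsg.Agent.Lib.Basic.PCore.pCore_isPGroup r
  set P0 := pCore r G with hP0
  set P : Subgroup (G ⋊[φ] A) := P0.map ι with hP
  have hφP : ∀ a : A, ∀ y ∈ P0, φ a y ∈ P0 := by
    intro a y hy
    have h1 := (Subgroup.characteristic_iff_comap_eq.mp hP0c) (φ a)
    rw [← h1] at hy
    exact hy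
  haveI hPn : P.Normal := by
    constructor
    rintro _ ⟨y, hy, rfl⟩ g
    have hg : g = ι g.left * α g.right := (SemidirectProduct.inl_left_mul_inr_right g).symm
    have h1 : g * ι y * g⁻¹ = ι (g.left * φ g.right y * g.left⁻¹) := by
      conv_lhs => rw [hg]
      rw [map_mul, map_mul, map_inv, ← hconj]
      group
    rw [h1]
    exact ⟨_, hP0n.conj_mem _ (hφP _ _ hy) _, rfl⟩
  have hPH : P ≤ ι.range := by
    rintro _ ⟨y, -, rfl⟩
    exact ⟨y, rfl⟩
  have hPp : IsPGroup r P := hP0p.map ι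
  have hcardP : Nat.card P ∣ Nat.card G := by
    have h1 := Subgroup.card_dvd_of_le hPH
    rwa [card_range] at h1
  have hcopP : (Nat.card A).Coprime (Nat.card P) := by
    rw [cardA]
    exact (Nat.Coprime.coprime_dvd_left hcardP hcop).symm
  have hsolvP : Group.IsSolvable P := by
    haveI : Group.IsNilpotent P := hPp.isNilpotent
    infer_instance
  have hnormP : Norm α P := fun a y hy => hPn.conj_mem y hy (α a)
  have hfpfP : Fpf α P := (fpf_range φ hfpf).mono hPH
  have hAK : (Nat.card A : K') ≠ 0 := by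
    rw [cardA]
    intro h0
    exact hrA ((CharP.cast_eq_zero_iff K' r _).mp h0)
  refine nilpotent_of_rep (K := K') φ hp hq cardA hcop hfpf hAK (dualRep (K := K') P) ?_ ?_
  · intro v hv
    exact dualA_fixed_eq_zero hnormP hcopP hsolvP hfpfP v hv
  · intro x
    constructor
    · intro hxρ
      refine Cfsg.Agent.Lib.Solvable.PSeries3.mem_pCore_of_commutator_mem_frattini
        Cfsg.Agent.Lib.Solvable.PSeries.isPSolvable_of_solvable hcore x ?_
      intro y hy
      let y₀ : P0 := ⟨y, hy⟩
      let y₁ : P0 := ⟨x * y * x⁻¹, hP0n.conj_mem y hy x⟩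
      let e : P0 ≃* P := P0.equivMapOfInjective ι hιinj
      have hz : y₁ * y₀⁻¹ ∈ frattini P0 := by
        refine frattini_of_sep (K := K') hP0p (fun f => ?_)
        let f₁ : Additive P →+ K' := f.comp (MonoidHom.toAdditive e.symm.toMonoidHom)
        have h1 := dualRep_trivial hxρ f₁ (e y₀)
        have h2 : (MulAut.conjNormal (ι x) (e y₀) : P) = e y₁ := by
          apply Subtype.ext
          change ι x * ι y * (ι x)⁻¹ = ι (x * y * x⁻¹)
          rw [map_mul, map_mul, map_inv]
        rw [h2] at h1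
        have h3 : ∀ z : P0, f₁ (Additive.ofMul (e z)) = f (Additive.ofMul z) := by
          intro z
          change f (Additive.ofMul (e.symm (e z))) = _
          rw [e.symm_apply_apply]
        rw [h3, h3] at h1
        rw [ofMul_mul, map_add, h1, ofMul_inv, map_neg, add_neg_cancel]
      exact ⟨_, hz, rfl⟩
    · intro hx
      refine LinearMap.ext fun f => AddMonoidHom.ext fun w => ?_
      obtain ⟨w, rfl⟩ := Additive.ofMul.surjective w
      rw [dualRep_apply, Module.End.one_apply]
      let xh : P := ⟨ι x, ⟨x, hx, rfl⟩⟩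
      have e : (MulAut.conjNormal (ι x)⁻¹ w : P) = xh⁻¹ * w * xh := by
        apply Subtype.ext
        simp [MulAut.conjNormal_apply, xh]
      rw [e, ofMul_mul, ofMul_mul, map_add, map_add, ofMul_inv, map_neg]
      abel

end Rep

section Main

theorem exists_stable_term (G : Type*) [Group G] [Finite G] :
    ∃ n₀ : ℕ, ∀ n, (⊤ : Subgroup G).lowerCentralSeries n₀ ≤ (⊤ : Subgroup G).lowerCentralSeries n := by
  classical
  let f : ℕ → ℕ := fun n => Nat.card ((⊤ : Subgroup G).lowerCentralSeries n)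
  obtain ⟨n₀, hn₀⟩ : ∃ n₀, ∀ n, f n₀ ≤ f n := by
    have hex : ∃ k, ∃ n, f n = k := ⟨f 0, 0, rfl⟩
    obtain ⟨n₀, hn₀⟩ := Nat.find_spec hex
    refine ⟨n₀, fun n => ?_⟩
    rw [hn₀]
    exact Nat.find_min' hex ⟨n, rfl⟩
  refine ⟨n₀, fun n => ?_⟩
  rcases le_total n n₀ with h | h
  · exact Subgroup.lowerCentralSeries_antitone _ h
  · have h1 := Subgroup.lowerCentralSeries_antitone (⊤ : Subgroup G) h
    rw [Subgroup.eq_of_le_of_card_ge h1 (hn₀ n)]

variable {G A : Type*} [Group G] [Finite G] [hGs : Group.IsSolvable G] [Group A] [Finite A]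

/-- The action on a quotient by the `r'`-core: the image of a deep term of the lower central series is in the
`r`-core. -/
theorem mem_pCore_quot (φ : A →* MulAut G) {p q : ℕ} (hp : p.Prime) (hq : q.Prime)
    (cardA : Nat.card A = p * q) (hcop : (Nat.card G).Coprime (p * q))
    (hfpf : ∀ g, (∀ a, φ a g = g) → g = 1) (r : ℕ) [hr : Fact r.Prime] :
    ∃ c : ℕ, ∀ x ∈ (⊤ : Subgroup G).lowerCentralSeries c,
      (x : G ⧸ pPrimeCore r G) ∈ pCore r (G ⧸ pPrimeCore r G) := by
  classical
  set N := pPrimeCore r G with hN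
  haveI hNn : N.Normal := Cfsg.Agent.Lib.Basic.PCore.pPrimeCore_normal r G
  haveI hNc : N.Characteristic := Cfsg.Agent.Lib.Solvable.PSeries.pPrimeCore_char r G
  have hmap : ∀ a, N.map (φ a).toMonoidHom = N := fun a =>
    (Subgroup.characteristic_iff_map_eq.mp hNc) (φ a)
  let φ' : A →* MulAut (G ⧸ N) :=
    { toFun := fun a => QuotientGroup.congr N N (φ a) (hmap a)
      map_one' := by
        ext q
        obtain ⟨x, rfl⟩ := QuotientGroup.mk_surjective q
        simp
      map_mul' := by
        intro a b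
        ext q
        obtain ⟨x, rfl⟩ := QuotientGroup.mk_surjective q
        change ((φ (a * b) x : G) : G ⧸ N) = ((φ a (φ b x) : G) : G ⧸ N)
        rw [map_mul]
        rfl }
  have hφ' : ∀ a (x : G), φ' a (x : G ⧸ N) = ((φ a x : G) : G ⧸ N) := fun a x => rfl
  have hmemN : ∀ a, ∀ y ∈ N, φ a y ∈ N := by
    intro a y hy
    rw [← hmap a]
    exact ⟨y, hy, rfl⟩
  have hcopA : (Nat.card A).Coprime (Nat.card G) := by
    rw [cardA]
    exact hcop.symm
  have hnil : Group.IsNilpotent ((G ⧸ N) ⧸ pCore r (G ⧸ N)) := by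
    refine nilpotent_quot φ' hp hq cardA
      (Nat.Coprime.coprime_dvd_left (Subgroup.card_quotient_dvd_card N) hcop) ?_ r
      (Cfsg.Agent.Lib.Components.PComponent.pPrimeCore_quotient_eq_bot r)
    intro q' h1
    obtain ⟨x, rfl⟩ := QuotientGroup.mk_surjective q'
    have hx : x ∈ N := by
      refine mem_of_coset_fixed_sd φ hcopA hfpf hmemN fun a => ?_
      have h2 := h1 a
      rw [hφ'] at h2
      exact (QuotientGroup.eq (s := N)).mp h2.symm
    exact (QuotientGroup.eq_one_iff x).mpr hx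
  obtain ⟨c, hc⟩ := Subgroup.nilpotent_iff_lowerCentralSeries.mp hnil
  refine ⟨c, fun x hx => ?_⟩
  let π₁ : G →* G ⧸ N := QuotientGroup.mk' N
  let π₂ : (G ⧸ N) →* (G ⧸ N) ⧸ pCore r (G ⧸ N) := QuotientGroup.mk' _
  have hsurj : Function.Surjective (π₂.comp π₁) :=
    (QuotientGroup.mk'_surjective _).comp (QuotientGroup.mk'_surjective _)
  have h1 := Subgroup.map_lowerCentralSeries (⊤ : Subgroup G) (π₂.comp π₁) c
  rw [Subgroup.map_top_of_surjective _ hsurj, hc] at h1
  have h2 : (π₂.comp π₁) x ∈ (⊥ : Subgroup _) := by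
    rw [← h1]
    exact Subgroup.mem_map_of_mem _ hx
  exact (QuotientGroup.eq_one_iff _).mp (Subgroup.mem_bot.mp h2)

/-- **The main theorem**: a solvable group with a coprime fixed-point-free action of a group of order `pq` has
Fitting length at most two. -/
theorem exists_nilpotent_normal_nilpotent_quot (φ : A →* MulAut G) {p q : ℕ} (hp : p.Prime)
    (hq : q.Prime) (cardA : Nat.card A = p * q) (hcop : (Nat.card G).Coprime (p * q))
    (hfpf : ∀ g, (∀ a, φ a g = g) → g = 1) :
    ∃ F : Subgroup G, ∃ _ : F.Normal, Group.IsNilpotent F ∧ Group.IsNilpotent (G ⧸ F) := by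
  classical
  obtain ⟨n₀, hn₀⟩ := exists_stable_term G
  set F := (⊤ : Subgroup G).lowerCentralSeries n₀ with hF
  haveI hFn : F.Normal := inferInstance
  refine ⟨F, hFn, ?_, ?_⟩
  · let I := {r // r ∈ (Nat.card G).primeFactors}
    haveI hIf : Finite I := inferInstance
    haveI hfact : ∀ i : I, Fact i.1.Prime := fun i => ⟨Nat.prime_of_mem_primeFactors i.2⟩
    haveI hGsn : ∀ i : I, Group.IsNilpotent (pCore i.1 (G ⧸ pPrimeCore i.1 G)) := fun i =>
      (Cfsg.Agent.Lib.Basic.PCore.pCore_isPGroup i.1).isNilpotent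
    have hmem : ∀ (i : I) (g : F), ((g : G) : G ⧸ pPrimeCore i.1 G) ∈ pCore i.1 (G ⧸ pPrimeCore i.1 G) := by
      intro i g
      obtain ⟨c, hc⟩ := mem_pCore_quot φ hp hq cardA hcop hfpf i.1
      exact hc _ (hn₀ c g.2)
    let Ψ : F →* ∀ i : I, pCore i.1 (G ⧸ pPrimeCore i.1 G) :=
      { toFun := fun g i => ⟨((g : G) : G ⧸ pPrimeCore i.1 G), hmem i g⟩
        map_one' := by
          funext i
          rfl
        map_mul' := by
          intro a b
          funext i
          rfl }
    refine Subgroup.isNilpotent_of_ker_le_center Ψ ?_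
    intro g hg
    have hg1 : (g : G) = 1 := by
      have hall : ∀ i : I, (g : G) ∈ pPrimeCore i.1 G := by
        intro i
        haveI hNn : (pPrimeCore i.1 G).Normal :=
          Cfsg.Agent.Lib.Basic.PCore.pPrimeCore_normal i.1 G
        have h1 := congrFun hg i
        have h2 : ((g : G) : G ⧸ pPrimeCore i.1 G) = 1 := congrArg Subtype.val h1
        exact (QuotientGroup.eq_one_iff _).mp h2
      by_contra hne
      have hord : orderOf (g : G) ≠ 1 := fun h => hne (orderOf_eq_one_iff.mp h)
      obtain ⟨q', hq', hqd⟩ := Nat.exists_prime_and_dvd hord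
      have hqG : q' ∣ Nat.card G := hqd.trans (orderOf_dvd_natCard _)
      have hqm : q' ∈ (Nat.card G).primeFactors :=
        Nat.mem_primeFactors.mpr ⟨hq', hqG, Nat.card_pos.ne'⟩
      have hin := hall ⟨q', hqm⟩
      have hc : (Nat.card (pPrimeCore q' G)).Coprime q' :=
        Cfsg.Agent.Lib.Solvable.PSeries.pPrimeCore_coprime q'
      have h1 : orderOf (g : G) ∣ Nat.card (pPrimeCore q' G) := by
        have := orderOf_dvd_natCard (⟨(g : G), hin⟩ : pPrimeCore q' G)
        rwa [Subgroup.orderOf_mk] at this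
      exact hq'.one_lt.ne' (Nat.eq_one_of_dvd_coprimes hc (hqd.trans h1) (dvd_refl q'))
    have : g = 1 := Subtype.ext hg1
    rw [this]
    exact one_mem _
  · rw [Subgroup.nilpotent_iff_lowerCentralSeries]
    refine ⟨n₀, ?_⟩
    have h1 := Subgroup.map_lowerCentralSeries (⊤ : Subgroup G) (QuotientGroup.mk' F) n₀
    rw [Subgroup.map_top_of_surjective _ (QuotientGroup.mk'_surjective F)] at h1
    rw [← h1, ← hF]
    exact QuotientGroup.map_mk'_self F

end Main

end Cfsg.Agent.Lib.PqFpf
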